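/-
Reduction of the rank-24 lattice modulo 13 (helper18): the stabiliser of a short vector acts faithfully on a hyperplane.
-/
import Cfsg.Agent.Lib.LeechX.Aut

set_option autoImplicit false

namespace Cfsg.Agent.Lib.LeechX

open Cfsg Cfsg.Agent.Lib.Golay Cfsg.Agent.Lib.Golay.Leech

/-- The additive map attached to a lattice automorphism. -/
def gHom (g : ↥Co0) : ↥leechLattice →+ ↥leechLattice := AddMonoidHom.mk' g.1 g.2.1

theorem gHom_apply (g : ↥Co0) (x : ↥leechLattice) : gHom g x = g.1 x := rfl

theorem g_norm (g : ↥Co0) (x : ↥leechLattice) : sqNorm (g.1 x).1 = sqNorm x.1 := g.2.2 x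

/-- Polarisation. -/
theorem g_dot (g : ↥Co0) (x y : ↥leechLattice) : dotInt (g.1 x).1 (g.1 y).1 = dotInt x.1 y.1 := by
  have h1 := g_norm g (x + y)
  rw [← gHom_apply, map_add, gHom_apply, gHom_apply, AddSubgroup.coe_add, AddSubgroup.coe_add, sqNorm_add,
    sqNorm_add, g_norm, g_norm] at h1
  linarith

/-- An automorphism congruent to the identity modulo 13 is the identity. -/
theorem eq_one_of_cong (g : ↥Co0)
    (h : ∀ x : ↥leechLattice, ∃ y : ↥leechLattice, (g.1 x).1 - x.1 = (13 : ℕ) • y.1) : g = 1 := by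
  have key : ∀ n : ℕ, ∀ x : ↥leechLattice, (sqNorm x.1).toNat < n → g.1 x = x := by
    intro n
    induction n with
    | zero => intro x hx; omega
    | succ n ih =>
      intro x hx
      obtain ⟨y, hy⟩ := h x
      by_contra hne
      have hy0 : y ≠ 0 := by
        rintro rfl
        apply hne
        apply Subtype.ext
        rw [AddSubgroup.coe_zero, smul_zero, sub_eq_zero] at hy
        exact hy
      have hx0 : x.1 ≠ 0 := by
        intro h0
        have hx' : x = 0 := Subtype.ext h0
        apply hne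
        rw [hx']
        have := map_zero (gHom g)
        exact this
      have h1 : 0 < sqNorm x.1 := lt_of_le_of_ne (sqNorm_nonneg _) (fun h2 => hx0 (sqNorm_eq_zero h2.symm))
      have hN : 0 ≤ sqNorm y.1 := sqNorm_nonneg _
      -- norms
      have h2 : sqNorm ((g.1 x).1 - x.1) + sqNorm ((g.1 x).1 + x.1) = 4 * sqNorm x.1 := by
        rw [sqNorm_add, sqNorm_sub, g_norm]
        ring
      have hsm : sqNorm ((13 : ℕ) • y.1) = 169 * sqNorm y.1 := by
        simp only [sqNorm, Pi.smul_apply, Finset.mul_sum, nsmul_eq_mul]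
        exact Finset.sum_congr rfl (fun i _ => by push_cast; ring)
      rw [hy, hsm] at h2
      have h3 : 0 ≤ sqNorm ((g.1 x).1 + x.1) := sqNorm_nonneg _
      have h4 : sqNorm y.1 < sqNorm x.1 := by linarith
      have hgy : g.1 y = y := ih y (by omega)
      -- iterate
      have hgx : g.1 x = x + (13 : ℕ) • y := by
        apply Subtype.ext
        rw [AddSubgroup.coe_add, AddSubgroup.coe_nsmul, ← hy]
        abel
      have hg2 : g.1 (x + (13 : ℕ) • y) = x + (26 : ℕ) • y := by
        rw [← gHom_apply, map_add, map_nsmul, gHom_apply, gHom_apply, hgx, hgy, add_assoc, ← add_nsmul]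
      have n1 := g_norm g x
      have n2 := g_norm g (x + (13 : ℕ) • y)
      rw [hg2] at n2
      rw [hgx] at n1
      simp only [AddSubgroup.coe_add, AddSubgroup.coe_nsmul] at n1 n2
      have e1 : ∀ k : ℕ, sqNorm (x.1 + k • y.1) = sqNorm x.1 + 2 * k * dotInt x.1 y.1 + k ^ 2 * sqNorm y.1 := by
        intro k
        rw [sqNorm_add]
        have h5 : dotInt x.1 (k • y.1) = k * dotInt x.1 y.1 := by
          simp only [dotInt, Pi.smul_apply, nsmul_eq_mul, Finset.mul_sum]
          exact Finset.sum_congr rfl (fun i _ => by ring)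
        have h6 : sqNorm (k • y.1) = k ^ 2 * sqNorm y.1 := by
          simp only [sqNorm, Pi.smul_apply, nsmul_eq_mul, Finset.mul_sum]
          exact Finset.sum_congr rfl (fun i _ => by ring)
        rw [h5, h6]
        ring
      rw [e1] at n1
      rw [e1, e1] at n2
      push_cast at n1 n2
      have h7 : sqNorm y.1 = 0 := by linarith
      exact hy0 (Subtype.ext (sqNorm_eq_zero h7))
  apply Subtype.ext
  apply Equiv.ext
  intro x
  exact key _ x (Nat.lt_succ_self _)

/-! ### Reduction -/

/-- The target of the reduction. -/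
abbrev V13 : Type := GolayPt → ZMod 13

/-- Reduction modulo 13. -/
def red : ↥leechLattice →+ V13 where
  toFun x i := ((x.1 i : ℤ) : ZMod 13)
  map_zero' := by
    funext i
    simp
  map_add' x y := by
    funext i
    simp

theorem red_apply (x : ↥leechLattice) (i : GolayPt) : red x i = ((x.1 i : ℤ) : ZMod 13) := rfl

theorem eight_mem (t : GolayPt → ℤ) : (fun i => 8 * t i) ∈ leechLattice := by
  apply isoA_le
  rw [mem_isoA]
  refine ⟨?_, Or.inl fun i => by omega⟩
  rw [← Finset.mul_sum]
  omega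

/-- A section of the reduction. -/
def sec (w : V13) : ↥leechLattice :=
  ⟨(5 : ℕ) • (fun i => 8 * ((w i).val : ℤ)), leechLattice.nsmul_mem (eight_mem _) 5⟩

theorem red_sec (w : V13) : red (sec w) = w := by
  funext i
  rw [red_apply]
  show (((5 : ℕ) • (8 * ((w i).val : ℤ)) : ℤ) : ZMod 13) = w i
  have h1 : (5 : ZMod 13) * 8 = 1 := by decide
  simp only [nsmul_eq_mul]
  push_cast
  rw [ZMod.natCast_zmod_val, ← mul_assoc, h1, one_mul]

theorem red_surj : Function.Surjective red := fun w => ⟨sec w, red_sec w⟩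

theorem red_eq_zero {x : ↥leechLattice} (h : red x = 0) : ∃ y : ↥leechLattice, x = (13 : ℕ) • y := by
  have h1 : ∀ i, (13 : ℤ) ∣ x.1 i := by
    intro i
    have h2 : red x i = 0 := congrFun h i
    rw [red_apply, ZMod.intCast_zmod_eq_zero_iff_dvd] at h2
    exact_mod_cast h2
  let t : GolayPt → ℤ := fun i => x.1 i / 13
  have ht : ∀ i, x.1 i = 13 * t i := fun i => by
    have := h1 i
    show x.1 i = 13 * (x.1 i / 13)
    omega
  have hy : t ∈ leechLattice := by
    have h2 : t = (5 : ℕ) • (fun i => 8 * t i) - (3 : ℕ) • x.1 := by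
      funext i
      show t i = (5 : ℕ) • (8 * t i) - (3 : ℕ) • x.1 i
      rw [ht i, nsmul_eq_mul, nsmul_eq_mul]
      push_cast
      ring
    rw [h2]
    exact leechLattice.sub_mem (leechLattice.nsmul_mem (eight_mem _) 5) (leechLattice.nsmul_mem x.2 3)
  refine ⟨⟨t, hy⟩, Subtype.ext ?_⟩
  rw [AddSubgroup.coe_nsmul]
  funext i
  simp only [Pi.smul_apply, nsmul_eq_mul]
  rw [ht i]
  push_cast
  ring

theorem red_eq_zero_of (y : ↥leechLattice) : red ((13 : ℕ) • y) = 0 := by
  rw [map_nsmul]
  funext i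
  show (13 : ℕ) • red y i = 0
  have h : ((13 : ℕ) : ZMod 13) = 0 := by decide
  rw [nsmul_eq_mul, h, zero_mul]

/-- The action of an automorphism on the reduction. -/
def actV (g : ↥Co0) : V13 → V13 := fun w => red (g.1 (sec w))

theorem actV_red (g : ↥Co0) (x : ↥leechLattice) : actV g (red x) = red (g.1 x) := by
  have h1 : red (sec (red x) - x) = 0 := by rw [map_sub, red_sec, sub_self]
  obtain ⟨y, hy⟩ := red_eq_zero h1
  have h2 : sec (red x) = x + (13 : ℕ) • y := by rw [← hy]; abel
  rw [actV, h2, ← gHom_apply, map_add, map_add, map_nsmul, red_eq_zero_of, add_zero, gHom_apply]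

/-- The action as a linear map. -/
def actL (g : ↥Co0) : V13 →ₗ[ZMod 13] V13 :=
  AddMonoidHom.toZModLinearMap 13
    { toFun := actV g
      map_zero' := by
        rw [← map_zero red, actV_red, ← gHom_apply, map_zero, map_zero]
      map_add' := by
        intro a b
        obtain ⟨x, rfl⟩ := red_surj a
        obtain ⟨y, rfl⟩ := red_surj b
        rw [← map_add, actV_red, actV_red, actV_red, ← gHom_apply, map_add, map_add]
        rfl }

theorem actL_red (g : ↥Co0) (x : ↥leechLattice) : actL g (red x) = red (g.1 x) := actV_red g x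

theorem actL_one : actL 1 = LinearMap.id := by
  apply LinearMap.ext
  intro w
  obtain ⟨x, rfl⟩ := red_surj w
  rw [actL_red]
  rfl

theorem actL_mul (g h : ↥Co0) (w : V13) : actL (g * h) w = actL g (actL h w) := by
  obtain ⟨x, rfl⟩ := red_surj w
  rw [actL_red, actL_red, actL_red]
  rfl

/-! ### The hyperplane -/

/-- The linear functional on integer vectors: the inner product with the short vector is four times this. -/
def bI (x : GolayPt → ℤ) : ℤ := x none + x (some 0)

theorem dot_vecU (x : GolayPt → ℤ) : dotInt x Spor.vecU = 4 * bI x := by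
  rw [dotInt, Fintype.sum_option]
  have h1 : ∑ i : ZMod 23, x (some i) * Spor.vecU (some i) = x (some 0) * 4 := by
    rw [Finset.sum_eq_single (0 : ZMod 23)]
    · rfl
    · intro b _ hb
      have : Spor.vecU (some b) = 0 := by
        rw [Spor.vecU, if_neg]
        rintro (h | h)
        · cases h
        · exact hb (Option.some.inj h)
      rw [this, mul_zero]
    · simp
  rw [h1, bI]
  show x none * 4 + _ = _
  ring

theorem bI_g (g : ↥Spor.Co2) (x : ↥leechLattice) : bI ((g.1 x).1) = bI x.1 := by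
  have h1 := g_dot ⟨g.1, g.2.1⟩ x Spor.leechU
  have h2 : (⟨g.1, g.2.1⟩ : ↥Co0).1 Spor.leechU = Spor.leechU := g.2.2
  rw [h2] at h1
  have h3 : dotInt (Spor.leechU : GolayPt → ℤ) = dotInt Spor.vecU := rfl
  have h4 : ∀ y : GolayPt → ℤ, dotInt y (Spor.leechU : GolayPt → ℤ) = 4 * bI y := dot_vecU
  rw [h4, h4] at h1
  have h5 : ((⟨g.1, g.2.1⟩ : ↥Co0).1 x) = g.1 x := rfl
  rw [h5] at h1
  linarith

/-- The hyperplane as a predicate. -/
def InW (w : V13) : Prop := w none + w (some 0) = 0

theorem inW_red (x : ↥leechLattice) : InW (red x) ↔ ((bI x.1 : ℤ) : ZMod 13) = 0 := by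
  rw [InW, red_apply, red_apply, bI]
  push_cast
  rfl

theorem inW_act (g : ↥Spor.Co2) {w : V13} (h : InW w) : InW (actL ⟨g.1, g.2.1⟩ w) := by
  obtain ⟨x, rfl⟩ := red_surj w
  rw [actL_red, inW_red]
  rw [inW_red] at h
  have : bI (((⟨g.1, g.2.1⟩ : ↥Co0).1 x).1) = bI x.1 := bI_g g x
  rw [this]
  exact h

/-- Identification of the index sets. -/
def e23 : Fin 23 ≃ ZMod 23 := Equiv.refl _

/-- Forget the extra coordinate. -/
def piL : V13 →ₗ[ZMod 13] (Fin 23 → ZMod 13) where
  toFun w i := w (some (e23 i))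
  map_add' _ _ := rfl
  map_smul' _ _ := rfl

/-- Recover the extra coordinate on the hyperplane. -/
def iotaL : (Fin 23 → ZMod 13) →ₗ[ZMod 13] V13 where
  toFun t p := match p with
    | none => - t (e23.symm 0)
    | some z => t (e23.symm z)
  map_add' a b := by
    funext p
    cases p
    · simp only [Pi.add_apply, neg_add]
    · simp only [Pi.add_apply]
  map_smul' c a := by
    funext p
    cases p
    · simp [mul_neg]
    · simp

theorem pi_iota (t : Fin 23 → ZMod 13) : piL (iotaL t) = t := by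
  funext i
  show t (e23.symm (e23 i)) = t i
  rw [Equiv.symm_apply_apply]

theorem inW_iota (t : Fin 23 → ZMod 13) : InW (iotaL t) := by
  show - t (e23.symm 0) + t (e23.symm 0) = 0
  exact neg_add_cancel _

theorem iota_pi {w : V13} (h : InW w) : iotaL (piL w) = w := by
  funext p
  cases p with
  | none =>
    show - w (some (e23 (e23.symm 0))) = w none
    rw [Equiv.apply_symm_apply]
    exact (eq_neg_of_add_eq_zero_left h).symm
  | some z =>
    show w (some (e23 (e23.symm z))) = w (some z)
    rw [Equiv.apply_symm_apply]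

/-- The action on the hyperplane. -/
def rhoFun (g : ↥Spor.Co2) : Module.End (ZMod 13) (Fin 23 → ZMod 13) :=
  piL ∘ₗ actL ⟨g.1, g.2.1⟩ ∘ₗ iotaL

theorem rhoFun_apply (g : ↥Spor.Co2) (t : Fin 23 → ZMod 13) :
    rhoFun g t = piL (actL ⟨g.1, g.2.1⟩ (iotaL t)) := rfl

/-- The representation on the hyperplane. -/
def rho : ↥Spor.Co2 →* Module.End (ZMod 13) (Fin 23 → ZMod 13) where
  toFun := rhoFun
  map_one' := by
    apply LinearMap.ext
    intro t
    rw [rhoFun_apply]
    have : (⟨(1 : ↥Spor.Co2).1, (1 : ↥Spor.Co2).2.1⟩ : ↥Co0) = 1 := rfl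
    rw [this, actL_one]
    exact pi_iota t
  map_mul' g h := by
    apply LinearMap.ext
    intro t
    rw [Module.End.mul_apply, rhoFun_apply, rhoFun_apply, rhoFun_apply]
    have : (⟨(g * h).1, (g * h).2.1⟩ : ↥Co0) = ⟨g.1, g.2.1⟩ * ⟨h.1, h.2.1⟩ := rfl
    rw [this, actL_mul, iota_pi (inW_act h (inW_iota t))]

theorem rho_faithful (g : ↥Spor.Co2) (h : rho g = 1) : g = 1 := by
  -- the action is trivial on the hyperplane
  have h1 : ∀ w : V13, InW w → actL ⟨g.1, g.2.1⟩ w = w := by
    intro w hw
    have h2 : rhoFun g (piL w) = piL w := by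
      have : rhoFun g = 1 := h
      rw [this]
      rfl
    rw [rhoFun_apply, iota_pi hw] at h2
    rw [← iota_pi (inW_act g hw), h2, iota_pi hw]
  have hg : (⟨g.1, g.2.1⟩ : ↥Co0) = 1 := by
    apply eq_one_of_cong
    intro x
    -- the modified vector in the hyperplane
    let x' : ↥leechLattice := (8 : ℕ) • x - (bI x.1) • Spor.leechU
    have hb : bI Spor.leechU.1 = 8 := by decide
    have hx' : InW (red x') := by
      rw [inW_red]
      have : bI x'.1 = 0 := by
        show bI ((8 : ℕ) • x.1 - (bI x.1) • Spor.leechU.1) = 0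
        have e : ∀ (a b : GolayPt → ℤ), bI (a - b) = bI a - bI b := fun a b => by
          simp only [bI, Pi.sub_apply]
          ring
        rw [e]
        have e2 : bI ((8 : ℕ) • x.1) = 8 * bI x.1 := by
          simp only [bI, Pi.smul_apply, nsmul_eq_mul]
          push_cast
          ring
        have e3 : bI ((bI x.1) • Spor.leechU.1) = bI x.1 * bI Spor.leechU.1 := by
          simp only [bI, Pi.smul_apply, smul_eq_mul]
          ring
        rw [e2, e3, hb]
        ring
      rw [this]
      simp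
    have h2 := h1 _ hx'
    rw [actL_red] at h2
    have hU : (⟨g.1, g.2.1⟩ : ↥Co0).1 Spor.leechU = Spor.leechU := g.2.2
    have h3 : (⟨g.1, g.2.1⟩ : ↥Co0).1 x' = (8 : ℕ) • (⟨g.1, g.2.1⟩ : ↥Co0).1 x - (bI x.1) • Spor.leechU := by
      rw [← gHom_apply, map_sub, map_nsmul, map_zsmul, gHom_apply, gHom_apply, hU]
    rw [h3] at h2
    have h4 : red ((8 : ℕ) • ((⟨g.1, g.2.1⟩ : ↥Co0).1 x - x)) = 0 := by
      have e : (8 : ℕ) • ((⟨g.1, g.2.1⟩ : ↥Co0).1 x - x)
          = ((8 : ℕ) • (⟨g.1, g.2.1⟩ : ↥Co0).1 x - (bI x.1) • Spor.leechU) - x' := by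
        show _ = _ - ((8 : ℕ) • x - (bI x.1) • Spor.leechU)
        rw [smul_sub]
        abel
      rw [e, map_sub, h2, sub_self]
    have h5 : red ((⟨g.1, g.2.1⟩ : ↥Co0).1 x - x) = 0 := by
      rw [map_nsmul] at h4
      funext i
      have h6 := congrFun h4 i
      simp only [Pi.smul_apply, nsmul_eq_mul, Pi.zero_apply] at h6
      have h7 : (5 : ZMod 13) * ((8 : ℕ) : ZMod 13) = 1 := by decide
      have h9 := congrArg (fun a : ZMod 13 => 5 * a) h6
      simp only [← mul_assoc, h7, one_mul, mul_zero] at h9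
      exact h9
    obtain ⟨y, hy⟩ := red_eq_zero h5
    refine ⟨y, ?_⟩
    have := congrArg Subtype.val hy
    simpa using this
  apply Subtype.ext
  have := congrArg (fun z : ↥Co0 => z.1) hg
  exact this

/-- The embedding into the general linear group. -/
theorem exists_embedding : ∃ f : ↥Spor.Co2 →* GL (Fin 23) (ZMod 13), Function.Injective f := by
  let m : ↥Spor.Co2 →* Matrix (Fin 23) (Fin 23) (ZMod 13) :=
    ((LinearMap.toMatrixAlgEquiv' (R := ZMod 13) (n := Fin 23)).toAlgHom.toMonoidHom).comp rho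
  refine ⟨m.toHomUnits, ?_⟩
  rw [injective_iff_map_eq_one]
  intro g hg
  apply rho_faithful
  have h1 : m g = 1 := by
    have := congrArg Units.val hg
    simpa using this
  have h2 : LinearMap.toMatrixAlgEquiv' (rho g) = 1 := h1
  have h3 := (LinearMap.toMatrixAlgEquiv' (R := ZMod 13) (n := Fin 23)).injective
    (h2.trans (map_one _).symm)
  exact h3

end Cfsg.Agent.Lib.LeechX
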