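/-
The lattice modulo twice itself is irreducible under its automorphisms, with kernel the two scalars (helper18).
-/
import Cfsg.Agent.Lib.LeechX.Xi
import Cfsg.Agent.Lib.LeechX.Gl23

set_option autoImplicit false

namespace Cfsg.Agent.Lib.LeechX

open Cfsg Cfsg.Agent.Lib.Golay Cfsg.Agent.Lib.Golay.Leech Cfsg.Agent.Lib.M24X
open scoped Pointwise

/-! ### Self-duality of the code -/

/-- The dot product as a bilinear form. -/
noncomputable def dotB2 : LinearMap.BilinForm (ZMod 2) (GolayPt → ZMod 2) :=
  LinearMap.mk₂ (ZMod 2) (fun u v => ∑ i, u i * v i)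
    (by intro a b c; simp [add_mul, Finset.sum_add_distrib])
    (by
      intro r a b
      simp only [Pi.smul_apply, smul_eq_mul, Finset.mul_sum]
      exact Finset.sum_congr rfl (fun i _ => by ring))
    (by intro a b c; simp [mul_add, Finset.sum_add_distrib])
    (by
      intro r a b
      simp only [Pi.smul_apply, smul_eq_mul, Finset.mul_sum]
      exact Finset.sum_congr rfl (fun i _ => by ring))

theorem dotB2_apply (u v : GolayPt → ZMod 2) : dotB2 u v = ∑ i, u i * v i := rfl

theorem dotB2_nondeg : (dotB2).Nondegenerate := by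
  have hsep : ∀ u : GolayPt → ZMod 2, (∀ v : GolayPt → ZMod 2, dotB2 u v = 0) → u = 0 := by
    intro u hu
    funext i
    have := hu (Pi.single i 1)
    rw [dotB2_apply] at this
    simpa [Finset.sum_eq_single i, Pi.single_apply] using this
  have hsym : ∀ u v : GolayPt → ZMod 2, dotB2 u v = dotB2 v u := by
    intro u v
    simp only [dotB2_apply, mul_comm]
  refine ⟨hsep, ?_⟩
  intro u hu
  exact hsep u (fun v => by rw [hsym]; exact hu v)

theorem finrank_golay : Module.finrank (ZMod 2) golayCode = 12 := by
  have h := Module.natCard_eq_pow_finrank (K := ZMod 2) (V := golayCode)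
  have h1 : Nat.card golayCode = 2 ^ 12 := card_G
  rw [h1, Nat.card_zmod] at h
  exact (Nat.pow_right_injective (le_refl 2) h).symm

/-- A word orthogonal to the code lies in the code. -/
theorem self_dual {u : GolayPt → ZMod 2} (hu : ∀ c ∈ golayCode, ∑ i, u i * c i = 0) : u ∈ golayCode := by
  have hle : golayCode ≤ dotB2.orthogonal golayCode := by
    intro x hx
    rw [LinearMap.BilinForm.mem_orthogonal_iff]
    intro n hn
    show dotB2 n x = 0
    rw [dotB2_apply]
    exact dot_self_orthogonal n x hn hx
  have hfr : Module.finrank (ZMod 2) (dotB2.orthogonal golayCode) = 12 := by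
    have h := LinearMap.BilinForm.finrank_orthogonal dotB2_nondeg golayCode
    rw [finrank_golay] at h
    rw [h]
    simp [Module.finrank_fintype_fun_eq_card, card_golayPt]
  have heq : golayCode = dotB2.orthogonal golayCode :=
    Submodule.eq_of_le_of_finrank_eq hle (by rw [finrank_golay, hfr])
  rw [heq, LinearMap.BilinForm.mem_orthogonal_iff]
  intro n hn
  show dotB2 n u = 0
  rw [dotB2_apply]
  have := hu n hn
  simpa [mul_comm] using this

/-! ### Transitivity -/

theorem exists_two {i j : GolayPt} (hij : i ≠ j) : ∃ h ∈ M24, h i = pt 23 ∧ h j = pt 0 := by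
  classical
  obtain ⟨r, hr⟩ : ∃ r : GolayPt, r ∉ ({i, j} : Finset GolayPt) := by
    by_contra hc
    push Not at hc
    have h1 : ({i, j} : Finset GolayPt) = Finset.univ := Finset.eq_univ_iff_forall.mpr hc
    have h2 : ({i, j} : Finset GolayPt).card ≤ 2 := Finset.card_le_two
    rw [h1, Finset.card_univ, card_golayPt] at h2
    omega
  obtain ⟨s, hs⟩ : ∃ s : GolayPt, s ∉ ({i, j, r} : Finset GolayPt) := by
    by_contra hc
    push Not at hc
    have h1 : ({i, j, r} : Finset GolayPt) = Finset.univ := Finset.eq_univ_iff_forall.mpr hc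
    have h2 : ({i, j, r} : Finset GolayPt).card ≤ 3 := Finset.card_le_three
    rw [h1, Finset.card_univ, card_golayPt] at h2
    omega
  simp only [Finset.mem_insert, Finset.mem_singleton, not_or] at hr hs
  obtain ⟨h, hh, h1, h2, -, -⟩ := exists_to_base4 hij (Ne.symm hr.1) (Ne.symm hs.1) (Ne.symm hr.2)
    (Ne.symm hs.2.1) (Ne.symm hs.2.2)
  exact ⟨h, hh, h1, h2⟩

/-- Two octads meeting in a prescribed pair. -/
theorem exists_pair_octads {i j : GolayPt} (hij : i ≠ j) :
    ∃ c ∈ supports (golayCode : Set (GolayPt → ZMod 2)), ∃ d ∈ supports (golayCode : Set (GolayPt → ZMod 2)),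
      c ∩ d = {i, j} := by
  obtain ⟨h, hh, h1, h2⟩ := exists_two hij
  have ho1 : finOf 8391797 ∈ supports (golayCode : Set (GolayPt → ZMod 2)) :=
    (finOf_mem_octads (by decide +kernel)).1
  have ho2 : finOf 8716939 ∈ supports (golayCode : Set (GolayPt → ZMod 2)) :=
    (finOf_mem_octads (by decide +kernel)).1
  refine ⟨h⁻¹ • finOf 8391797, smul_supports_of_mem_M24 (M24.inv_mem hh) ho1,
    h⁻¹ • finOf 8716939, smul_supports_of_mem_M24 (M24.inv_mem hh) ho2, ?_⟩
  rw [← Finset.smul_finset_inter]
  have h3 : finOf 8391797 ∩ finOf 8716939 = {pt 23, pt 0} := by decide +kernel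
  rw [h3, Finset.smul_finset_insert, Finset.smul_finset_singleton]
  congr 1
  · show h⁻¹ (pt 23) = i
    rw [← h1]
    simp
  · congr 1
    show h⁻¹ (pt 0) = j
    rw [← h2]
    simp

/-! ### Invariant subgroups -/

/-- Invariant subgroups between twice the lattice and the lattice. -/
structure InvM (M : AddSubgroup (GolayPt → ℤ)) : Prop where
  two : ∀ v ∈ leechLattice, (2 : ℤ) • v ∈ M
  le : M ≤ leechLattice
  inv : ∀ (g : ↥Co0) (v : ↥leechLattice), v.1 ∈ M → (g.1 v).1 ∈ M

/-- Restriction to a set of coordinates. -/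
def restr (c : Finset GolayPt) (v : GolayPt → ℤ) : GolayPt → ℤ := fun i => if i ∈ c then v i else 0

theorem restr_smul (c : Finset GolayPt) (k : ℤ) (v : GolayPt → ℤ) : restr c (k • v) = k • restr c v := by
  funext i
  simp only [restr, Pi.smul_apply, smul_eq_mul]
  split_ifs <;> simp

theorem restr_restr (c d : Finset GolayPt) (v : GolayPt → ℤ) : restr c (restr d v) = restr (c ∩ d) v := by
  funext i
  simp only [restr, Finset.mem_inter]
  by_cases h1 : i ∈ c <;> by_cases h2 : i ∈ d <;> simp [h1, h2]

section
variable {M : AddSubgroup (GolayPt → ℤ)} (hM : InvM M)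
include hM

theorem two_restr_mem {c : Finset GolayPt} (hc : c ∈ supports (golayCode : Set (GolayPt → ZMod 2)))
    {v : GolayPt → ℤ} (hv : v ∈ M) : (2 : ℤ) • restr c v ∈ M := by
  have h1 := hM.inv (signAut c hc) ⟨v, hM.le hv⟩ hv
  have h2 : (2 : ℤ) • restr c v = v - ((signAut c hc).1 ⟨v, hM.le hv⟩).1 := by
    funext i
    simp only [Pi.smul_apply, Pi.sub_apply, smul_eq_mul, signAut_coe, restr]
    split_ifs <;> ring
  rw [h2]
  exact M.sub_mem hv h1

theorem perm_closed {σ : Equiv.Perm GolayPt} (hσ : σ ∈ M24) {v : GolayPt → ℤ} (hv : v ∈ M) :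
    (fun i => v (σ i)) ∈ M :=
  hM.inv (permAut σ hσ) ⟨v, hM.le hv⟩ hv

theorem xi_closedM {v : GolayPt → ℤ} (hv : v ∈ M) : xiV v ∈ M :=
  hM.inv xiAut ⟨v, hM.le hv⟩ hv

/-- From an odd multiple. -/
theorem eight_of_odd (D : Finset GolayPt) (t : GolayPt → ℤ) (hu : (8 : ℤ) • restr D t ∈ M)
    (hodd : (∑ i ∈ D, t i) % 2 = 1) : eightE ∈ M := by
  have hid : (∑ i ∈ D, t i) • eightE = (8 : ℤ) • restr D t - (2 : ℤ) • ∑ j ∈ D, t j • fd j := by
    funext i
    simp only [Pi.smul_apply, Pi.sub_apply, smul_eq_mul, Finset.sum_apply, restr, fd, eightE, mul_sub,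
      Finset.mul_sum, Finset.sum_sub_distrib]
    have e1 : ∑ j ∈ D, 2 * (t j * (if i = j then (4 : ℤ) else 0)) = if i ∈ D then 8 * t i else 0 := by
      split_ifs with hi
      · rw [Finset.sum_eq_single i]
        · simp
          ring
        · intro b _ hb
          rw [if_neg (Ne.symm hb), mul_zero, mul_zero]
        · intro h
          exact absurd hi h
      · apply Finset.sum_eq_zero
        intro j hj
        have : i ≠ j := by
          rintro rfl
          exact hi hj
        rw [if_neg this, mul_zero, mul_zero]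
    have e2 : ∑ j ∈ D, 2 * (t j * (if i = none then (4 : ℤ) else 0))
        = (∑ j ∈ D, t j) * (if i = none then (8 : ℤ) else 0) := by
      rw [Finset.sum_mul]
      apply Finset.sum_congr rfl
      intro j _
      split_ifs <;> ring
    rw [e1, e2]
    split_ifs with h1 h2 <;> ring
  have h1 : (∑ i ∈ D, t i) • eightE ∈ M := by
    rw [hid]
    exact M.sub_mem hu (hM.two _ (leechLattice.sum_mem fun j _ => leechLattice.zsmul_mem (fd_mem j) _))
  obtain ⟨q, hq⟩ : ∃ q, ∑ i ∈ D, t i = 2 * q + 1 := ⟨(∑ i ∈ D, t i) / 2, by omega⟩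
  have h2 : eightE = (∑ i ∈ D, t i) • eightE - (2 : ℤ) • (q • eightE) := by
    rw [hq, add_smul, one_smul, mul_smul]
    abel
  rw [h2]
  exact M.sub_mem h1 (hM.two _ (leechLattice.zsmul_mem eightE_mem q))

theorem eight_of_four {x : GolayPt → ℤ} (hx : x ∈ M) (h4 : ∀ i, x i % 4 = 0) (hs : (∑ i, x i) % 8 = 0)
    (hn : ¬ ∃ w ∈ leechLattice, x = (2 : ℤ) • w) : eightE ∈ M := by
  let z : GolayPt → ℤ := fun i => x i / 4
  have hz : ∀ i, x i = 4 * z i := fun i => by
    have := h4 i
    show x i = 4 * (x i / 4)
    omega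
  have hsum : ∑ i, x i = 4 * ∑ i, z i := by
    rw [Finset.mul_sum]
    exact Finset.sum_congr rfl (fun i _ => hz i)
  have hpar : (∑ i, z i) % 2 = 0 := by
    rw [hsum] at hs
    omega
  by_cases hw : pi2 z ∈ golayCode
  · -- twice `z` is almost in the lattice
    have hb : bitv (fun i => 2 * z i) = pi2 z := by
      funext i
      rw [bitv, pi2_apply]
      congr 1
      omega
    have hs2 : ∑ i, (2 * z i) = 2 * ∑ i, z i := by rw [Finset.mul_sum]
    by_cases h8 : (∑ i, (2 * z i)) % 8 = 0
    · exfalso
      apply hn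
      refine ⟨fun i => 2 * z i, ?_, ?_⟩
      · rw [mem_leechLattice_iff]
        left
        refine ⟨fun i => ?_, ?_, by rw [hb]; exact hw⟩
        · show (2 * z i) % 2 = 0
          omega
        · show (∑ i, (2 * z i)) % 8 = (4 * 0) % 8
          omega
      · funext i
        simp only [Pi.smul_apply, smul_eq_mul]
        rw [hz i]
        ring
    · -- subtract
      let y : GolayPt → ℤ := fun i => 2 * z i - (if i = none then 4 else 0)
      have hbb : bitv y = pi2 z := by
        rw [← hb]
        funext i
        simp only [bitv, y]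
        rw [cast_eq_cast_iff]
        split_ifs <;> omega
      have hsy : ∑ i, y i = ∑ i, (2 * z i) - 4 := by
        simp only [y]
        rw [Finset.sum_sub_distrib]
        simp
      have hy : y ∈ leechLattice := by
        rw [mem_leechLattice_iff]
        left
        refine ⟨fun i => ?_, by rw [hsy]; omega, by rw [hbb]; exact hw⟩
        simp only [y]
        split_ifs <;> omega
      have h3 : eightE = x - (2 : ℤ) • y := by
        funext i
        simp only [eightE, Pi.sub_apply, Pi.smul_apply, smul_eq_mul, y]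
        rw [hz i]
        split_ifs <;> ring
      rw [h3]
      exact M.sub_mem hx (hM.two _ hy)
  · -- a word of odd intersection
    have h5 : ¬ ∀ c ∈ golayCode, ∑ i, pi2 z i * c i = 0 := fun h => hw (self_dual h)
    push Not at h5
    obtain ⟨c, hc, hc1⟩ := h5
    apply eight_of_odd hM (support₂ c) z
    · have h6 := two_restr_mem hM ⟨c, hc, rfl⟩ hx
      have h7 : (2 : ℤ) • restr (support₂ c) x = (8 : ℤ) • restr (support₂ c) z := by
        funext i
        simp only [Pi.smul_apply, smul_eq_mul, restr]
        split_ifs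
        · rw [hz i]
          ring
        · simp
      rwa [h7] at h6
    · have h8 : ((∑ i ∈ support₂ c, z i : ℤ) : ZMod 2) = ∑ i, pi2 z i * c i := by
        rw [Int.cast_sum, ← Finset.sum_filter_add_sum_filter_not Finset.univ (· ∈ support₂ c)
          (fun i => pi2 z i * c i)]
        have e : Finset.univ.filter (· ∈ support₂ c) = support₂ c := by simp
        rw [e]
        have e1 : ∑ i ∈ support₂ c, pi2 z i * c i = ∑ i ∈ support₂ c, ((z i : ℤ) : ZMod 2) := by
          apply Finset.sum_congr rfl
          intro i hi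
          have h9 : c i ≠ 0 := (Finset.mem_filter.mp hi).2
          have h10 : ∀ a : ZMod 2, a ≠ 0 → a = 1 := by decide
          rw [h10 _ h9, mul_one, pi2_apply]
        have e2 : ∑ i ∈ Finset.univ.filter (fun i => ¬ i ∈ support₂ c), pi2 z i * c i = 0 := by
          apply Finset.sum_eq_zero
          intro i hi
          have h3 : c i = 0 := by
            have h5 := (Finset.mem_filter.mp hi).2
            by_contra h6
            exact h5 (Finset.mem_filter.mpr ⟨Finset.mem_univ _, h6⟩)
          rw [h3, mul_zero]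
        rw [e1, e2, add_zero]
      have h9 : ((∑ i ∈ support₂ c, z i : ℤ) : ZMod 2) ≠ 0 := by
        rw [h8]
        exact hc1
      rw [Ne, cast_eq_zero_iff] at h9
      omega

/-- Every vector outside twice the lattice generates the vector `8 e`. -/
theorem eightE_of_not_two {x : GolayPt → ℤ} (hx : x ∈ M) (hn : ¬ ∃ w ∈ leechLattice, x = (2 : ℤ) • w) :
    eightE ∈ M := by
  rcases mem_leechLattice_iff.mp (hM.le hx) with h0 | h1
  · by_cases hb : ∃ i j, bitv x i ≠ 0 ∧ bitv x j = 0
    · obtain ⟨i, j, hi, hj⟩ := hb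
      have hij : i ≠ j := by
        rintro rfl
        exact hi hj
      obtain ⟨c, hc, d, hd, hcd⟩ := exists_pair_octads hij
      let t : GolayPt → ℤ := half x
      have hq : ∀ k, x k = 2 * t k := fun k => by
        have := h0.1 k
        show x k = 2 * (x k / 2)
        omega
      apply eight_of_odd hM (c ∩ d) t
      · have h6 := two_restr_mem hM hc (two_restr_mem hM hd hx)
        have h7 : (2 : ℤ) • restr c ((2 : ℤ) • restr d x) = (8 : ℤ) • restr (c ∩ d) t := by
          rw [restr_smul, restr_restr, smul_smul]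
          funext k
          simp only [Pi.smul_apply, smul_eq_mul, restr]
          split_ifs
          · rw [hq k]
            ring
          · simp
        rwa [h7] at h6
      · rw [hcd, Finset.sum_pair hij]
        rw [bitv, Ne, cast_eq_zero_iff] at hi
        rw [bitv, cast_eq_zero_iff] at hj
        show (x i / 2 + x j / 2) % 2 = 1
        omega
    · push Not at hb
      have hc : (∀ i, bitv x i = 0) ∨ (∀ i, bitv x i ≠ 0) := by
        by_cases h : ∃ i, bitv x i ≠ 0
        · obtain ⟨i, hi⟩ := h
          exact Or.inr (fun j => hb i j hi)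
        · push Not at h
          exact Or.inl h
      rcases hc with hc | hc
      · apply eight_of_four hM hx _ _ hn
        · intro i
          have h2 := hc i
          rw [bitv, cast_eq_zero_iff] at h2
          have := h0.1 i
          omega
        · have := h0.2.1
          omega
      · have hx2 : x - (2 : ℤ) • oddV ∈ M := M.sub_mem hx (hM.two _ oddV_mem)
        apply eight_of_four hM hx2
        · intro i
          have h2 := hc i
          rw [bitv, Ne, cast_eq_zero_iff] at h2
          have h3 := h0.1 i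
          simp only [Pi.sub_apply, Pi.smul_apply, smul_eq_mul, oddV]
          split_ifs <;> omega
        · simp only [Pi.sub_apply, Pi.smul_apply, smul_eq_mul, Finset.sum_sub_distrib]
          have h3 : ∑ i, 2 * oddV i = 40 := by decide +kernel
          rw [h3]
          have := h0.2.1
          omega
        · rintro ⟨w, hw, hw2⟩
          apply hn
          refine ⟨w + oddV, leechLattice.add_mem hw oddV_mem, ?_⟩
          rw [smul_add, ← hw2]
          abel
  · -- odd vectors
    have h3 := two_restr_mem hM (finOf_mem_octads (m := 8391797) (by decide +kernel)).1 hx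
    have h4 := two_restr_mem hM (finOf_mem_octads (m := 11272490) (by decide +kernel)).1 h3
    have h5 := two_restr_mem hM (finOf_mem_octads (m := 8654232) (by decide +kernel)).1 h4
    rw [restr_smul, restr_restr, restr_smul, restr_restr, smul_smul, smul_smul] at h5
    have h6 : finOf 8654232 ∩ finOf 11272490 ∩ finOf 8391797 = {none} := by decide +kernel
    rw [h6] at h5
    apply eight_of_odd hM {none} x
    · exact h5
    · rw [Finset.sum_singleton]
      exact h1.1 none

/-! ### From the vector `8 e` to everything -/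

/-- A difference of two vectors `4 e`. -/
def d4 (a b : GolayPt) : GolayPt → ℤ := fun i => (if i = a then 4 else 0) - (if i = b then 4 else 0)

omit hM in
theorem d4_comp (σ : Equiv.Perm GolayPt) (a b : GolayPt) :
    (fun i => d4 a b (σ i)) = d4 (σ⁻¹ a) (σ⁻¹ b) := by
  funext i
  have e : ∀ c, (σ i = c) ↔ (i = σ⁻¹ c) := by
    intro c
    constructor
    · rintro rfl
      simp
    · rintro rfl
      simp
  simp only [d4, e]

theorem d4_mem (h8 : eightE ∈ M) (a b : GolayPt) : d4 a b ∈ M := by
  -- the image under the extra automorphism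
  have h1 := xi_closedM hM h8
  obtain ⟨σ, hσ, h2, h3, h4, h5⟩ := exists_to_base4 (p := pt 23) (q := pt 0) (r := pt 1) (s := pt 3)
    (by decide) (by decide) (by decide) (by decide) (by decide) (by decide)
  have h6 := perm_closed hM hσ h1
  have h7 := M.sub_mem h1 h6
  have hval : ∀ k : GolayPt, xiV eightE k
      = if k = pt 23 then -4 else if k = pt 0 ∨ k = pt 1 ∨ k = pt 2 then 4 else 0 := by
    decide +kernel
  have hinj := σ.injective
  have hA : d4 (pt 2) (pt 3) ∈ M := by
    have e : d4 (pt 2) (pt 3) = xiV eightE - fun i => xiV eightE (σ i) := by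
      funext i
      simp only [Pi.sub_apply, hval, d4]
      have e0 : ∀ a b : GolayPt, σ a = b → (σ i = b ↔ i = a) := by
        rintro a b rfl
        exact hinj.eq_iff
      have e1 := e0 _ _ h2
      have e2 := e0 _ _ h3
      have e3 := e0 _ _ h4
      have e4 := e0 _ _ h5
      simp only [e1, e2, e3, e4]
      by_cases c1 : i = pt 23
      · subst c1
        decide
      by_cases c2 : i = pt 0
      · subst c2
        decide
      by_cases c3 : i = pt 1
      · subst c3
        decide
      by_cases c4 : i = pt 2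
      · subst c4
        decide
      by_cases c5 : i = pt 3
      · subst c5
        decide
      simp [c1, c2, c3, c4, c5]
    rw [e]
    exact h7
  -- transport to the pair of base points
  have hB : d4 (pt 23) (pt 0) ∈ M := by
    obtain ⟨g, hg, hg1⟩ := Cfsg.Agent.Lib.Golay.exists_base5_to ![pt 2, pt 3, pt 23, pt 0, pt 1] (by decide)
    have e1 : g (pt 23) = pt 2 := hg1 0
    have e2 : g (pt 0) = pt 3 := hg1 1
    have h9 := perm_closed hM hg hA
    rw [d4_comp] at h9
    have e3 : g⁻¹ (pt 2) = pt 23 := by
      rw [← e1]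
      simp
    have e4 : g⁻¹ (pt 3) = pt 0 := by
      rw [← e2]
      simp
    rwa [e3, e4] at h9
  by_cases hab : a = b
  · subst hab
    have : d4 a a = 0 := by
      funext i
      simp [d4]
    rw [this]
    exact M.zero_mem
  obtain ⟨τ, hτ, h9, h10⟩ := exists_two hab
  have h11 := perm_closed hM hτ hB
  rw [d4_comp] at h11
  have e3 : τ⁻¹ (pt 23) = a := by
    rw [← h9]
    simp
  have e4 : τ⁻¹ (pt 0) = b := by
    rw [← h10]
    simp
  rwa [e3, e4] at h11

theorem four_le (h8 : eightE ∈ M) {x : GolayPt → ℤ} (hx : ∀ i, x i % 4 = 0) (hs : (∑ i, x i) % 8 = 0) : x ∈ M :=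
  four_part_le M (fun j => d4_mem hM h8 j none) h8 hx hs

omit hM in
theorem ls0_of_even {y : GolayPt → ℤ} (hy : y ∈ leechLattice) (he : y none % 2 = 0) : LS 0 y := by
  rcases mem_leechLattice_iff.mp hy with h | h
  · exact h
  · have := h.1 none
    omega

theorem even_le (h8 : eightE ∈ M) {x : GolayPt → ℤ} (hx : LS 0 x) : x ∈ M := by
  let x0 : GolayPt → ℤ := fun i => if i = pt 6 ∨ i = pt 9 ∨ i = pt 8 ∨ i = pt 4 then 4 else 0
  have hx0 : x0 ∈ M := four_le hM h8 (by decide +kernel) (by decide +kernel)
  have hy1 := xi_closedM hM hx0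
  have hy2 : xiV x0 + (2 : ℤ) • oddV ∈ M := M.add_mem hy1 (hM.two _ oddV_mem)
  have hbit : bitv (xiV x0 + (2 : ℤ) • oddV) = wordOf m0 := by
    funext i
    revert i
    decide +kernel
  have hP : ∀ w ∈ golayCode, ∃ y ∈ M, LS 0 y ∧ bitv y = w := by
    intro w hw
    refine code_induction (P := fun w => ∃ y ∈ M, LS 0 y ∧ bitv y = w) ?_ ?_ ?_ hw
    · refine ⟨0, M.zero_mem, ls0_of_even leechLattice.zero_mem rfl, ?_⟩
      funext i
      simp [bitv]
    · rintro v w ⟨a, ha, ha1, rfl⟩ ⟨b, hb, hb1, rfl⟩
      refine ⟨a + b, M.add_mem ha hb, LS_add00 ha1 hb1, ?_⟩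
      funext i
      have h5 := ha1.1 i
      have h6 := hb1.1 i
      simp only [bitv, Pi.add_apply, ← Int.cast_add]
      rw [show (a i + b i) / 2 = a i / 2 + b i / 2 by omega]
    · intro e he
      have hoct : isOct e = true := by
        revert e
        decide +kernel
      obtain ⟨g, hg⟩ := exists_smul_octad (finOf_mem_octads hoct)
      have hm : (fun i => (xiV x0 + (2 : ℤ) • oddV) ((g⁻¹ : ↥M24).1 i)) ∈ M :=
        perm_closed hM (g⁻¹).2 hy2
      refine ⟨_, hm, ls0_of_even (hM.le hm) ?_, ?_⟩
      · have : ∀ k, (xiV x0 + (2 : ℤ) • oddV) k % 2 = 0 := by decide +kernel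
        exact this _
      · funext i
        show bitv (xiV x0 + (2 : ℤ) • oddV) ((g⁻¹ : ↥M24).1 i) = wordOf e i
        rw [hbit, wordOf_apply, wordOf_apply]
        have h1 : ((g⁻¹ : ↥M24).1 i) ∈ finOf m0 ↔ i ∈ finOf e := by
          rw [← hg]
          have h2 := Cfsg.Agent.Lib.Golay.mem_smul_iff g.1 (finOf m0) ((g⁻¹ : ↥M24).1 i)
          have h3 : g.1 ((g⁻¹ : ↥M24).1 i) = i := by
            show g.1 (g.1⁻¹ i) = i
            simp
          rw [h3] at h2
          exact h2.symm
        rw [mem_finOf, mem_finOf] at h1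
        simp only [h1]
  obtain ⟨y, hy, hy1, hy2⟩ := hP _ hx.2.2
  have hd : x - y ∈ M := by
    apply four_le hM h8
    · intro i
      have h5 := hx.1 i
      have h6 := hy1.1 i
      have h7 : bitv y i = bitv x i := congrFun hy2 i
      simp only [bitv] at h7
      rw [cast_eq_cast_iff] at h7
      simp only [Pi.sub_apply]
      omega
    · simp only [Pi.sub_apply, Finset.sum_sub_distrib]
      have h5 := hx.2.1
      have h6 := hy1.2.1
      omega
  have := M.add_mem hd hy
  rwa [sub_add_cancel] at this

theorem all_le (h8 : eightE ∈ M) : leechLattice ≤ M := by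
  intro x hx
  rcases mem_leechLattice_iff.mp hx with hx | hx
  · exact even_le hM h8 hx
  · have hm : dblE 525274 ∈ leechLattice := dblE_mem _ (by decide)
    have h1 : dblE 525274 ∈ M := even_le hM h8 (ls0_of_even hm (by decide +kernel))
    have h2 := xi_closedM hM h1
    have h3 : LS 1 (-xiV (dblE 525274)) := by
      rcases mem_leechLattice_iff.mp (leechLattice.neg_mem (hM.le h2)) with h | h
      · have := h.1 none
        exfalso
        revert this
        decide +kernel
      · exact h
    have h4 := even_le hM h8 (LS_add11 hx h3)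
    have h5 := M.add_mem h4 h2
    rwa [add_assoc, neg_add_cancel, add_zero] at h5

end

/-- Irreducibility. -/
theorem eq_or_le_two {M : AddSubgroup (GolayPt → ℤ)} (hM : InvM M) :
    (∀ x ∈ M, ∃ w ∈ leechLattice, x = (2 : ℤ) • w) ∨ M = leechLattice := by
  by_cases h : ∀ x ∈ M, ∃ w ∈ leechLattice, x = (2 : ℤ) • w
  · exact Or.inl h
  · right
    push Not at h
    obtain ⟨x, hx, hn⟩ := h
    exact le_antisymm hM.le (all_le hM (eightE_of_not_two hM hx (by
      rintro ⟨w, hw, h⟩
      exact hn w hw h)))

/-! ### The kernel -/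

/-- The additive subgroup of fixed vectors. -/
def fixS (g : ↥Co0) : AddSubgroup (GolayPt → ℤ) where
  carrier := {x | ∃ hx : x ∈ leechLattice, g.1 ⟨x, hx⟩ = ⟨x, hx⟩}
  zero_mem' := ⟨leechLattice.zero_mem, map_zero (gHom g)⟩
  add_mem' := by
    rintro a b ⟨ha, h1⟩ ⟨hb, h2⟩
    refine ⟨leechLattice.add_mem ha hb, ?_⟩
    have e : (⟨a + b, leechLattice.add_mem ha hb⟩ : ↥leechLattice) = ⟨a, ha⟩ + ⟨b, hb⟩ := rfl
    rw [e, ← gHom_apply, map_add, gHom_apply, gHom_apply, h1, h2]
  neg_mem' := by
    rintro a ⟨ha, h1⟩
    refine ⟨leechLattice.neg_mem ha, ?_⟩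
    have e : (⟨-a, leechLattice.neg_mem ha⟩ : ↥leechLattice) = -⟨a, ha⟩ := rfl
    rw [e, ← gHom_apply, map_neg, gHom_apply, h1]

/-- An automorphism congruent to the identity modulo two and fixing the odd vector is trivial. -/
theorem eq_one_of_cong_two (g : ↥Co0)
    (h : ∀ v : ↥leechLattice, ∃ w : ↥leechLattice, (g.1 v).1 - v.1 = (2 : ℕ) • w.1)
    (hu : g.1 ⟨oddV, oddV_mem⟩ = ⟨oddV, oddV_mem⟩) : g = 1 := by
  have hc : ∀ b (hb : b ∈ leechLattice), sqNorm b < 64 → dotInt oddV b ≠ 0 → b ∈ fixS g := by
    intro b hb hn hd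
    obtain ⟨w, hw⟩ := h ⟨b, hb⟩
    obtain ⟨h2, h3⟩ := mod_two_statement' (g.1 ⟨b, hb⟩).2 hb (by rw [g_norm]; exact hn.le) hn.le ⟨w.1, w.2, hw⟩
    have hd2 := g_dot g ⟨oddV, oddV_mem⟩ ⟨b, hb⟩
    rw [hu] at hd2
    rcases h3 (by rw [h2]; exact hn) with h4 | h4
    · refine ⟨hb, Subtype.ext h4.symm⟩
    · exfalso
      have h5 : (g.1 ⟨b, hb⟩).1 = -b := by
        have h6 := congrArg Neg.neg h4
        rw [neg_neg] at h6
        exact h6.symm
      simp only [h5] at hd2
      have h6 : dotInt oddV (-b) = - dotInt oddV b := by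
        simp only [dotInt, Pi.neg_apply, mul_neg, Finset.sum_neg_distrib]
      rw [h6] at hd2
      apply hd
      linarith
  have hS : leechLattice ≤ fixS g := by
    apply lattice_le
    · exact ⟨oddV_mem, hu⟩
    · intro j
      by_cases hj : j = none
      · subst hj
        have : fd none = 0 := by
          funext i
          simp [fd]
        rw [this]
        exact AddSubgroup.zero_mem _
      · apply hc _ (fd_mem j)
        · revert j
          decide +kernel
        · revert j
          decide +kernel
    · have h1 : ((fun i => (if i = some 0 then 4 else 0) + (if i = none then 4 else 0)) : GolayPt → ℤ) ∈ fixS g := by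
        apply hc
        · exact latB_sound (by decide +kernel)
        · decide +kernel
        · decide +kernel
      have h2 : fd (some 0) ∈ fixS g := by
        apply hc _ (fd_mem _)
        · decide +kernel
        · decide +kernel
      have h3 := (fixS g).sub_mem h1 h2
      have e : ((fun i => (if i = some 0 then 4 else 0) + (if i = none then 4 else 0)) : GolayPt → ℤ) - fd (some 0) = eightE := by
        funext i
        revert i
        decide +kernel
      rwa [e] at h3
    · intro m hm
      apply hc _ (dblE_mem m hm)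
      · revert m
        decide +kernel
      · revert m
        decide +kernel
  apply co0_ext
  intro v i
  obtain ⟨hv, h2⟩ := hS v.2
  have h3 : g.1 v = v := h2
  rw [h3]
  rfl

/-- An automorphism congruent to the identity modulo two is a scalar. -/
theorem scalar_of_cong (g : ↥Co0)
    (h : ∀ v : ↥leechLattice, ∃ w : ↥leechLattice, (g.1 v).1 - v.1 = (2 : ℕ) • w.1) :
    g = 1 ∨ g = negAut := by
  let u0 : ↥leechLattice := ⟨oddV, oddV_mem⟩
  have hn : sqNorm oddV = 32 := by decide +kernel
  obtain ⟨w, hw⟩ := h u0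
  obtain ⟨h2, h3⟩ := mod_two_statement' (g.1 u0).2 u0.2 (by rw [g_norm]; show sqNorm oddV ≤ 64; rw [hn]; norm_num)
    (by show sqNorm oddV ≤ 64; rw [hn]; norm_num) ⟨w.1, w.2, hw⟩
  rcases h3 (by rw [h2]; show sqNorm oddV < 64; rw [hn]; norm_num) with h4 | h4
  · left
    exact eq_one_of_cong_two g h (Subtype.ext h4.symm)
  · right
    have h5 : negAut * g = 1 := by
      apply eq_one_of_cong_two
      · intro v
        obtain ⟨w, hw⟩ := h v
        refine ⟨-w - v, ?_⟩
        show (-(g.1 v)).1 - v.1 = _
        rw [AddSubgroup.coe_neg, AddSubgroup.coe_sub, AddSubgroup.coe_neg]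
        have : (-(g.1 v).1) - v.1 = -((g.1 v).1 - v.1) - (2 : ℕ) • v.1 := by
          rw [two_smul]
          abel
        rw [this, hw, smul_sub, smul_neg]
      · show -(g.1 u0) = u0
        apply Subtype.ext
        rw [AddSubgroup.coe_neg]
        exact h4.symm
    have h6 := negAut_sq
    calc g = (negAut * negAut) * g := by rw [h6, one_mul]
      _ = negAut * (negAut * g) := mul_assoc _ _ _
      _ = negAut := by rw [h5, mul_one]

/-- The kernel lies in the centre. -/
theorem mem_center_of_cong (g : ↥Co0)
    (h : ∀ v : ↥leechLattice, ∃ w : ↥leechLattice, (g.1 v).1 - v.1 = (2 : ℕ) • w.1) :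
    g ∈ Subgroup.center ↥Co0 := by
  rcases scalar_of_cong g h with rfl | rfl
  · exact Subgroup.one_mem _
  · rw [Subgroup.mem_center_iff]
    exact negAut_comm

end Cfsg.Agent.Lib.LeechX
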