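/-
Uniqueness of the invariant quadratic form on the lattice modulo twice itself (helper18).
-/
import Cfsg.Agent.Lib.LeechX.Irred

set_option autoImplicit false

namespace Cfsg.Agent.Lib.LeechX

open Cfsg Cfsg.Agent.Lib.Golay Cfsg.Agent.Lib.Golay.Leech Cfsg.Agent.Lib.M24X

/-! ### The standard forms -/

theorem eight_dvd_dot (x y : ↥leechLattice) : (8 : ℤ) ∣ dotInt x.1 y.1 := by
  have h1 := sixteen_dvd' x.2
  have h2 := sixteen_dvd' y.2
  have h3 := sixteen_dvd' (leechLattice.add_mem x.2 y.2)
  rw [sqNorm_add] at h3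
  omega

/-- The standard bilinear form. -/
def b0 (x y : ↥leechLattice) : ZMod 2 := ((dotInt x.1 y.1 / 8 : ℤ) : ZMod 2)

/-- The standard quadratic form. -/
def q0 (x : ↥leechLattice) : ZMod 2 := ((sqNorm x.1 / 16 : ℤ) : ZMod 2)

theorem dotInt_add_right' (u x y : GolayPt → ℤ) : dotInt u (x + y) = dotInt u x + dotInt u y := by
  simp only [dotInt, Pi.add_apply, mul_add, Finset.sum_add_distrib]

theorem dotInt_add_left' (x y u : GolayPt → ℤ) : dotInt (x + y) u = dotInt x u + dotInt y u := by
  simp only [dotInt, Pi.add_apply, add_mul, Finset.sum_add_distrib]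

theorem b0_add (u v w : ↥leechLattice) : b0 (u + v) w = b0 u w + b0 v w := by
  have h1 := eight_dvd_dot u w
  have h2 := eight_dvd_dot v w
  simp only [b0, AddSubgroup.coe_add, dotInt_add_left']
  rw [← Int.cast_add]
  congr 1
  omega

theorem b0_two (v w : ↥leechLattice) : b0 (v + v) w = 0 := by
  rw [b0_add]
  exact CharTwo.add_self_eq_zero _

theorem b0_inv (g : ↥Co0) (x y : ↥leechLattice) : b0 (g.1 x) (g.1 y) = b0 x y := by
  simp only [b0, g_dot]

theorem q0_polar (x y : ↥leechLattice) : q0 (x + y) + q0 x + q0 y = b0 x y := by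
  have h1 := sixteen_dvd' x.2
  have h2 := sixteen_dvd' y.2
  have h4 := eight_dvd_dot x y
  simp only [q0, b0, AddSubgroup.coe_add, sqNorm_add]
  have h5 : (sqNorm x.1 + 2 * dotInt x.1 y.1 + sqNorm y.1) / 16
      = sqNorm x.1 / 16 + dotInt x.1 y.1 / 8 + sqNorm y.1 / 16 := by omega
  rw [h5]
  push_cast
  generalize ((sqNorm x.1 / 16 : ℤ) : ZMod 2) = a
  generalize ((sqNorm y.1 / 16 : ℤ) : ZMod 2) = b
  generalize ((dotInt x.1 y.1 / 8 : ℤ) : ZMod 2) = c
  revert a b c
  decide

theorem q0_inv (g : ↥Co0) (x : ↥leechLattice) : q0 (g.1 x) = q0 x := by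
  simp only [q0, g_norm]

theorem q0_two (x : ↥leechLattice) : q0 (x + x) = 0 := by
  have h1 := sixteen_dvd' x.2
  simp only [q0, AddSubgroup.coe_add]
  have h2 : sqNorm (x.1 + x.1) = 4 * sqNorm x.1 := by
    rw [sqNorm_add, dotInt, sqNorm]
    rw [Finset.mul_sum, Finset.mul_sum, ← Finset.sum_add_distrib, ← Finset.sum_add_distrib]
    exact Finset.sum_congr rfl (fun i _ => by ring)
  rw [h2, cast_eq_zero_iff]
  omega

/-- Twice a word as a lattice vector. -/
def dblF (d : Finset GolayPt) : GolayPt → ℤ := fun i => if i ∈ d then 2 else 0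

theorem dblF_mem {d : Finset GolayPt} (hd : d ∈ supports (golayCode : Set (GolayPt → ZMod 2))) :
    dblF d ∈ leechLattice := by
  obtain ⟨v, hv, rfl⟩ := hd
  rw [mem_leechLattice_iff]
  left
  refine ⟨fun i => ?_, ?_, ?_⟩
  · simp only [dblF]
    split_ifs <;> rfl
  · have h1 : ∑ i, dblF (support₂ v) i = 2 * ((support₂ v).card : ℤ) := by
      simp only [dblF]
      rw [Finset.sum_ite_mem, Finset.univ_inter, Finset.sum_const, nsmul_eq_mul]
      ring
    rw [h1]
    have := four_dvd_card hv
    omega
  · have : bitv (dblF (support₂ v)) = v := by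
      funext i
      simp only [bitv, dblF, support₂, Finset.mem_filter, Finset.mem_univ, true_and]
      have h4 : ∀ a : ZMod 2, a ≠ 0 → a = 1 := by decide
      by_cases h : v i = 0
      · simp [h]
      · rw [if_pos h, h4 _ h]
        norm_num
    rw [this]
    exact hv

section
variable (Q : ↥leechLattice → ZMod 2)

/-- The polar form. -/
def polar (x y : ↥leechLattice) : ZMod 2 := Q (x + y) + Q x + Q y

variable {Q}
variable (hcoset : ∀ v w : ↥leechLattice, Q (v + (w + w)) = Q v)
  (hquad : ∀ u v w : ↥leechLattice, Q (u + v + w) + Q u + Q v + Q w = Q (u + v) + Q (u + w) + Q (v + w))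
  (hinv : ∀ (g : ↥Co0) (v : ↥leechLattice), Q (g.1 v) = Q v)

include hquad in
theorem polar_add (u v w : ↥leechLattice) : polar Q (u + v) w = polar Q u w + polar Q v w := by
  have h := hquad u v w
  simp only [polar]
  generalize Q (u + v + w) = a at *
  generalize Q u = b at *
  generalize Q v = c at *
  generalize Q w = d at *
  generalize Q (u + v) = e at *
  generalize Q (u + w) = f at *
  generalize Q (v + w) = g at *
  revert a b c d e f g
  decide

theorem polar_comm (x y : ↥leechLattice) : polar Q x y = polar Q y x := by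
  simp only [polar, add_comm x y]
  generalize Q (y + x) = a
  generalize Q x = b
  generalize Q y = c
  revert a b c
  decide

include hquad in
theorem Q_zero : Q 0 = 0 := by
  have h := hquad 0 0 0
  simp only [add_zero] at h
  generalize Q 0 = a at *
  revert a
  decide

include hcoset hquad in
theorem Q_two (w : ↥leechLattice) : Q (w + w) = 0 := by
  have h := hcoset 0 w
  rw [zero_add] at h
  rw [h]
  exact Q_zero hquad

include hcoset hquad in
theorem polar_two (w y : ↥leechLattice) : polar Q (w + w) y = 0 := by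
  simp only [polar]
  have h1 : w + w + y = y + (w + w) := add_comm _ _
  rw [h1, hcoset, Q_two hcoset hquad, add_zero]
  exact CharTwo.add_self_eq_zero _

include hinv in
theorem polar_inv (g : ↥Co0) (x y : ↥leechLattice) : polar Q (g.1 x) (g.1 y) = polar Q x y := by
  simp only [polar]
  rw [← gHom_apply g x, ← gHom_apply g y, ← map_add, gHom_apply, gHom_apply, gHom_apply, hinv, hinv, hinv]

include hcoset hquad in
theorem polar_neg (u y : ↥leechLattice) : polar Q (-u) y = polar Q u y := by
  have h1 : u = -u + (u + u) := by abel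
  have h2 := polar_add hquad (-u) (u + u) y
  rw [← h1, polar_two hcoset hquad, add_zero] at h2
  exact h2.symm

include hquad in
theorem polar_add_right (u v w : ↥leechLattice) : polar Q u (v + w) = polar Q u v + polar Q u w := by
  rw [polar_comm, polar_add hquad, polar_comm v, polar_comm w]

include hcoset hquad in
theorem polar_neg_right (u y : ↥leechLattice) : polar Q u (-y) = polar Q u y := by
  rw [polar_comm, polar_neg hcoset hquad, polar_comm]

include hcoset hquad in
theorem polar_self (u : ↥leechLattice) : polar Q u u = 0 := by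
  simp only [polar]
  rw [Q_two hcoset hquad, zero_add]
  exact CharTwo.add_self_eq_zero _

include hquad in
theorem polar_zero_right (u : ↥leechLattice) : polar Q u 0 = 0 := by
  simp only [polar, add_zero, Q_zero hquad]
  exact CharTwo.add_self_eq_zero _

/-- The lattice vector `8 e`. -/
def nV : ↥leechLattice := ⟨eightE, eightE_mem⟩

omit hcoset hquad hinv in
theorem invM_top : InvM leechLattice :=
  ⟨fun _ h => leechLattice.zsmul_mem h 2, le_refl _, fun g v _ => (g.1 v).2⟩

include hcoset hquad hinv in
theorem polar_sign (c : Finset GolayPt) (hc : c ∈ supports (golayCode : Set (GolayPt → ZMod 2)))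
    (y : ↥leechLattice) : polar Q nV ((signAut c hc).1 y) = polar Q nV y := by
  have h := polar_inv hinv (signAut c hc) nV y
  by_cases hn : none ∈ c
  · have e : (signAut c hc).1 nV = -nV := by
      apply Subtype.ext
      funext i
      rw [signAut_coe]
      show (if i ∈ c then -eightE i else eightE i) = -eightE i
      by_cases hi : i ∈ c
      · rw [if_pos hi]
      · have : i ≠ none := by
          rintro rfl
          exact hi hn
        rw [if_neg hi]
        simp [eightE, this]
    rw [e, polar_neg hcoset hquad] at h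
    exact h
  · have e : (signAut c hc).1 nV = nV := by
      apply Subtype.ext
      funext i
      rw [signAut_coe]
      show (if i ∈ c then -eightE i else eightE i) = eightE i
      by_cases hi : i ∈ c
      · have : i ≠ none := by
          rintro rfl
          exact hn hi
        rw [if_pos hi]
        simp [eightE, this]
      · rw [if_neg hi]
    rw [e] at h
    exact h

include hcoset hquad hinv in
theorem polar_restr (c : Finset GolayPt) (hc : c ∈ supports (golayCode : Set (GolayPt → ZMod 2)))
    (y : ↥leechLattice) (z : ↥leechLattice) (hz : z.1 = (2 : ℤ) • restr c y.1) : polar Q nV z = 0 := by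
  have e : z = y + -(signAut c hc).1 y := by
    apply Subtype.ext
    rw [hz]
    funext i
    simp only [AddSubgroup.coe_add, AddSubgroup.coe_neg, Pi.add_apply, Pi.neg_apply, signAut_coe,
      Pi.smul_apply, smul_eq_mul, restr]
    split_ifs <;> ring
  rw [e, polar_add_right hquad, polar_neg_right hcoset hquad, polar_sign hcoset hquad hinv]
  exact CharTwo.add_self_eq_zero _

include hcoset hquad hinv in
theorem polar_fd (j : GolayPt) : polar Q nV ⟨fd j, fd_mem j⟩ = 0 := by
  by_cases hj : j = none
  · subst hj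
    have e : (⟨fd none, fd_mem none⟩ : ↥leechLattice) = 0 := by
      apply Subtype.ext
      funext i
      simp [fd]
    rw [e]
    exact polar_zero_right hquad _
  · obtain ⟨c, hc, d, hd, hcd⟩ := exists_pair_octads hj
    let y : ↥leechLattice := ⟨dblF d, dblF_mem hd⟩
    have hz := two_restr_mem invM_top hc y.2
    let z : ↥leechLattice := ⟨_, hz⟩
    have h1 := polar_restr hcoset hquad hinv c hc y z rfl
    have e : (⟨fd j, fd_mem j⟩ : ↥leechLattice) = z + -nV := by
      apply Subtype.ext
      funext i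
      show (if i = j then (4 : ℤ) else 0) - (if i = none then 4 else 0)
        = 2 * (if i ∈ c then (if i ∈ d then 2 else 0) else 0) + -(if i = none then 8 else 0)
      have h2 : (i ∈ c ∧ i ∈ d) ↔ (i = j ∨ i = none) := by
        rw [← Finset.mem_inter, hcd]
        simp
      by_cases h3 : i = j
      · have h4 : i ≠ none := by
          rw [h3]
          exact hj
        obtain ⟨h51, h52⟩ := h2.mpr (Or.inl h3)
        subst h3
        simp [h51, h52, hj]
      · by_cases h4 : i = none
        · have h5 := h2.mpr (Or.inr h4)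
          subst h4
          simp [h3, h5.1, h5.2]
        · have h5 : ¬ (i ∈ c ∧ i ∈ d) := fun h6 => (h2.mp h6).elim h3 h4
          simp only [h3, h4, if_false]
          by_cases h6 : i ∈ c
          · have h7 : i ∉ d := fun h8 => h5 ⟨h6, h8⟩
            simp [h6, h7]
          · simp [h6]
    rw [e, polar_add_right hquad, h1, polar_neg_right hcoset hquad, polar_self hcoset hquad, add_zero]

theorem dblE_decomp : ∀ m ∈ E, ∀ i, dblE m i = ((2 : ℤ) • restr (finOf m) oddV) i + (if m.testBit 23 then eightE i else 0) := by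
  decide +kernel

include hcoset hquad hinv in
theorem polar_dblE (m : ℕ) (hm : m ∈ E) : polar Q nV ⟨dblE m, dblE_mem m hm⟩ = 0 := by
  have hoct : isOct m = true := by
    revert m
    decide +kernel
  have hc : finOf m ∈ supports (golayCode : Set (GolayPt → ZMod 2)) := (finOf_mem_octads hoct).1
  let y : ↥leechLattice := ⟨oddV, oddV_mem⟩
  have hz := two_restr_mem invM_top hc y.2
  let z : ↥leechLattice := ⟨_, hz⟩
  have h1 := polar_restr hcoset hquad hinv _ hc y z rfl
  by_cases h2 : m.testBit 23 = true
  · have e : (⟨dblE m, dblE_mem m hm⟩ : ↥leechLattice) = z + nV := by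
      apply Subtype.ext
      funext i
      have := dblE_decomp m hm i
      rw [if_pos h2] at this
      exact this
    rw [e, polar_add_right hquad, h1, polar_self hcoset hquad, add_zero]
  · have e : (⟨dblE m, dblE_mem m hm⟩ : ↥leechLattice) = z := by
      apply Subtype.ext
      funext i
      have := dblE_decomp m hm i
      rw [if_neg h2, add_zero] at this
      exact this
    rw [e, h1]

include hcoset hquad hinv in
/-- The functional attached to `8 e`. -/
theorem polar_nV (x : ↥leechLattice) :
    polar Q nV x = polar Q nV ⟨oddV, oddV_mem⟩ * ((x.1 none : ℤ) : ZMod 2) := by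
  set μ := polar Q nV ⟨oddV, oddV_mem⟩ with hμ
  let S : AddSubgroup (GolayPt → ℤ) :=
    { carrier := {x | ∃ hx : x ∈ leechLattice, polar Q nV ⟨x, hx⟩ = μ * ((x none : ℤ) : ZMod 2)}
      zero_mem' := ⟨leechLattice.zero_mem, by
        have := polar_zero_right hquad (Q := Q) nV
        show polar Q nV 0 = _
        rw [this]
        simp⟩
      add_mem' := by
        rintro a b ⟨ha, h1⟩ ⟨hb, h2⟩
        refine ⟨leechLattice.add_mem ha hb, ?_⟩
        have e : (⟨a + b, leechLattice.add_mem ha hb⟩ : ↥leechLattice) = ⟨a, ha⟩ + ⟨b, hb⟩ := rfl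
        rw [e, polar_add_right hquad, h1, h2, Pi.add_apply, Int.cast_add, mul_add]
      neg_mem' := by
        rintro a ⟨ha, h1⟩
        refine ⟨leechLattice.neg_mem ha, ?_⟩
        have e : (⟨-a, leechLattice.neg_mem ha⟩ : ↥leechLattice) = -⟨a, ha⟩ := rfl
        rw [e, polar_neg_right hcoset hquad, h1, Pi.neg_apply, neg_cast] }
  have hS : leechLattice ≤ S := by
    apply lattice_le
    · refine ⟨oddV_mem, ?_⟩
      have : ((oddV none : ℤ) : ZMod 2) = 1 := by decide +kernel
      rw [this, mul_one]
    · intro j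
      refine ⟨fd_mem j, ?_⟩
      rw [polar_fd hcoset hquad hinv]
      have : ((fd j none : ℤ) : ZMod 2) = 0 := by
        revert j
        decide +kernel
      rw [this, mul_zero]
    · refine ⟨eightE_mem, ?_⟩
      have : ((eightE none : ℤ) : ZMod 2) = 0 := by decide +kernel
      rw [this, mul_zero]
      exact polar_self hcoset hquad _
    · intro m hm
      refine ⟨dblE_mem m hm, ?_⟩
      rw [polar_dblE hcoset hquad hinv m hm]
      have : ((dblE m none : ℤ) : ZMod 2) = 0 := by
        revert m
        decide +kernel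
      rw [this, mul_zero]
  obtain ⟨_, h⟩ := hS x.2
  exact h

omit hcoset hquad hinv in
theorem b0_nV (x : ↥leechLattice) : b0 nV x = ((x.1 none : ℤ) : ZMod 2) := by
  have h : dotInt nV.1 x.1 = 8 * x.1 none := by
    show ∑ i, eightE i * x.1 i = _
    rw [Finset.sum_eq_single none]
    · rfl
    · intro b _ hb
      simp [eightE, hb]
    · simp
  simp only [b0]
  rw [h]
  congr 1
  omega

omit hcoset hquad hinv in
theorem not_two_of_norm {x : GolayPt → ℤ} (hx0 : x ≠ 0) (hn : sqNorm x < 128) :
    ¬ ∃ w ∈ leechLattice, x = (2 : ℤ) • w := by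
  rintro ⟨w, hw, rfl⟩
  have hw0 : w ≠ 0 := by
    rintro rfl
    simp at hx0
  have h1 := norm_ge' hw hw0
  have h2 : sqNorm ((2 : ℤ) • w) = 4 * sqNorm w := by
    simp only [sqNorm, Pi.smul_apply, smul_eq_mul, Finset.mul_sum]
    exact Finset.sum_congr rfl (fun i _ => by ring)
  rw [h2] at hn
  omega

include hcoset hquad hinv in
/-- The polar form is a multiple of the standard one. -/
theorem polar_eq (x y : ↥leechLattice) :
    polar Q x y = polar Q nV ⟨oddV, oddV_mem⟩ * b0 x y := by
  set μ := polar Q nV ⟨oddV, oddV_mem⟩ with hμ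
  let M : AddSubgroup (GolayPt → ℤ) :=
    { carrier := {x | ∃ hx : x ∈ leechLattice, ∀ y : ↥leechLattice, polar Q ⟨x, hx⟩ y = μ * b0 ⟨x, hx⟩ y}
      zero_mem' := ⟨leechLattice.zero_mem, fun y => by
        have h1 : (⟨0, leechLattice.zero_mem⟩ : ↥leechLattice) = 0 + 0 := by simp
        rw [h1, polar_two hcoset hquad, b0_two, mul_zero]⟩
      add_mem' := by
        rintro a b ⟨ha, h1⟩ ⟨hb, h2⟩
        refine ⟨leechLattice.add_mem ha hb, fun y => ?_⟩
        have e : (⟨a + b, leechLattice.add_mem ha hb⟩ : ↥leechLattice) = ⟨a, ha⟩ + ⟨b, hb⟩ := rfl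
        rw [e, polar_add hquad, b0_add, h1, h2, mul_add]
      neg_mem' := by
        rintro a ⟨ha, h1⟩
        refine ⟨leechLattice.neg_mem ha, fun y => ?_⟩
        have e : (⟨-a, leechLattice.neg_mem ha⟩ : ↥leechLattice) = -⟨a, ha⟩ := rfl
        have h3 : b0 (-⟨a, ha⟩) y = b0 ⟨a, ha⟩ y := by
          have h4 := b0_add (-⟨a, ha⟩) ((⟨a, ha⟩ : ↥leechLattice) + ⟨a, ha⟩) y
          have h5 : -(⟨a, ha⟩ : ↥leechLattice) + ((⟨a, ha⟩ : ↥leechLattice) + ⟨a, ha⟩) = ⟨a, ha⟩ := by abel
          rw [h5, b0_two, add_zero] at h4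
          exact h4.symm
        rw [e, polar_neg hcoset hquad, h1, h3] }
  have hM : InvM M := by
    refine ⟨fun v hv => ?_, fun x hx => hx.1, ?_⟩
    · refine ⟨leechLattice.zsmul_mem hv 2, fun y => ?_⟩
      have e : (⟨(2 : ℤ) • v, leechLattice.zsmul_mem hv 2⟩ : ↥leechLattice) = ⟨v, hv⟩ + ⟨v, hv⟩ := by
        apply Subtype.ext
        show (2 : ℤ) • v = v + v
        rw [two_zsmul]
      rw [e, polar_two hcoset hquad, b0_two, mul_zero]
    · rintro g v ⟨hv, h1⟩
      refine ⟨(g.1 v).2, fun y => ?_⟩
      have h2 := h1 (g⁻¹.1 y)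
      have e1 : g.1 (g⁻¹.1 y) = y := by
        show g.1 (g.1⁻¹ y) = y
        simp
      have h3 := polar_inv hinv g ⟨v.1, hv⟩ (g⁻¹.1 y)
      have h4 := b0_inv g ⟨v.1, hv⟩ (g⁻¹.1 y)
      rw [e1] at h3 h4
      have e2 : (⟨(g.1 v).1, (g.1 v).2⟩ : ↥leechLattice) = g.1 ⟨v.1, hv⟩ := rfl
      rw [e2, h3, h2, h4]
  have h8 : eightE ∈ M := by
    refine ⟨eightE_mem, fun y => ?_⟩
    show polar Q nV y = μ * b0 nV y
    rw [polar_nV hcoset hquad hinv, b0_nV]
  have hn : ¬ ∃ w ∈ leechLattice, eightE = (2 : ℤ) • w :=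
    not_two_of_norm (by
      intro h
      have := congrFun h none
      simp [eightE] at this) (by decide +kernel)
  rcases eq_or_le_two hM with h | h
  · exact absurd (h _ h8) hn
  · have hx : x.1 ∈ M := by rw [h]; exact x.2
    obtain ⟨_, h2⟩ := hx
    exact h2 y

end

/-- The uniqueness theorem. -/
theorem quad_unique (Q : ↥leechLattice → ZMod 2)
    (hcoset : ∀ v w : ↥leechLattice, Q (v + (w + w)) = Q v)
    (hquad : ∀ u v w : ↥leechLattice, Q (u + v + w) + Q u + Q v + Q w = Q (u + v) + Q (u + w) + Q (v + w))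
    (hinv : ∀ (g : ↥Co0) (v : ↥leechLattice), Q (g.1 v) = Q v)
    (hne : ∃ v : ↥leechLattice, Q v ≠ 0) (v : ↥leechLattice) :
    Q v = q0 v := by
  set μ := polar Q nV ⟨oddV, oddV_mem⟩ with hμ
  have hpol := polar_eq hcoset hquad hinv
  rw [← hμ] at hpol
  have hadd : ∀ x y : ↥leechLattice, Q (x + y) + μ * q0 (x + y) = (Q x + μ * q0 x) + (Q y + μ * q0 y) := by
    intro x y
    have h1 := hpol x y
    have h2 := q0_polar x y
    simp only [polar] at h1
    rw [← h2] at h1
    have key : ∀ a b c d e f m : ZMod 2, a + b + c = m * (d + e + f) → a + m * d = b + m * e + (c + m * f) := by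
      decide
    exact key _ _ _ _ _ _ _ h1
  have hzero : Q 0 + μ * q0 0 = 0 := by
    have h1 := Q_zero hquad
    have h2 : q0 0 = 0 := by simp [q0, sqNorm]
    rw [h1, h2]
    simp
  let M : AddSubgroup (GolayPt → ℤ) :=
    { carrier := {x | ∃ hx : x ∈ leechLattice, Q ⟨x, hx⟩ + μ * q0 ⟨x, hx⟩ = 0}
      zero_mem' := ⟨leechLattice.zero_mem, hzero⟩
      add_mem' := by
        rintro a b ⟨ha, h1⟩ ⟨hb, h2⟩
        refine ⟨leechLattice.add_mem ha hb, ?_⟩
        have e : (⟨a + b, leechLattice.add_mem ha hb⟩ : ↥leechLattice) = ⟨a, ha⟩ + ⟨b, hb⟩ := rfl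
        rw [e, hadd, h1, h2, add_zero]
      neg_mem' := by
        rintro a ⟨ha, h1⟩
        refine ⟨leechLattice.neg_mem ha, ?_⟩
        have e : (⟨-a, leechLattice.neg_mem ha⟩ : ↥leechLattice) = -⟨a, ha⟩ := rfl
        have h3 := hadd (-⟨a, ha⟩) ⟨a, ha⟩
        rw [neg_add_cancel, hzero, h1, add_zero] at h3
        rw [e]
        exact h3.symm }
  have hM : InvM M := by
    refine ⟨fun v hv => ?_, fun x hx => hx.1, ?_⟩
    · refine ⟨leechLattice.zsmul_mem hv 2, ?_⟩
      have e : (⟨(2 : ℤ) • v, leechLattice.zsmul_mem hv 2⟩ : ↥leechLattice) = ⟨v, hv⟩ + ⟨v, hv⟩ := by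
        apply Subtype.ext
        show (2 : ℤ) • v = v + v
        rw [two_zsmul]
      rw [e, Q_two hcoset hquad, q0_two]
      simp
    · rintro g v ⟨hv, h1⟩
      refine ⟨(g.1 v).2, ?_⟩
      have e2 : (⟨(g.1 v).1, (g.1 v).2⟩ : ↥leechLattice) = g.1 ⟨v.1, hv⟩ := rfl
      rw [e2, hinv, q0_inv]
      exact h1
  have htop : ∀ x : ↥leechLattice, Q x + μ * q0 x = 0 := by
    rcases eq_or_le_two hM with h | h
    · exfalso
      have h8 : ¬ eightE ∈ M := fun hm => not_two_of_norm (x := eightE) (by
        intro h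
        have := congrFun h none
        simp [eightE] at this) (by decide +kernel) (h _ hm)
      have hu : ¬ Spor.vecU ∈ M := fun hm => not_two_of_norm (x := Spor.vecU) (by
        intro h
        have := congrFun h none
        simp [Spor.vecU] at this) (by decide +kernel) (h _ hm)
      have hd : ¬ (eightE + -Spor.vecU) ∈ M := fun hm => not_two_of_norm (x := eightE + -Spor.vecU) (by
        intro h
        have := congrFun h none
        simp [eightE, Spor.vecU] at this) (by decide +kernel) (h _ hm)
      have e1 : Q nV + μ * q0 nV ≠ 0 := fun h0 => h8 ⟨eightE_mem, h0⟩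
      have e2 : Q Spor.leechU + μ * q0 Spor.leechU ≠ 0 := fun h0 => hu ⟨Spor.vecU_mem_leechSet |> fun h1 => AddSubgroup.subset_closure h1, h0⟩
      have hm2 := leechLattice.add_mem eightE_mem (leechLattice.neg_mem Spor.leechU.2)
      have e3 : Q (nV + -Spor.leechU) + μ * q0 (nV + -Spor.leechU) ≠ 0 := fun h0 => hd ⟨hm2, h0⟩
      have h1 := hadd nV (-Spor.leechU)
      have h2 := hadd (-Spor.leechU) Spor.leechU
      rw [neg_add_cancel, hzero] at h2
      rw [h1] at e3
      have key : ∀ a b c : ZMod 2, a ≠ 0 → b ≠ 0 → a + c ≠ 0 → 0 = c + b → False := by decide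
      exact key _ _ _ e1 e2 e3 h2
    · intro x
      have hx : x.1 ∈ M := by rw [h]; exact x.2
      obtain ⟨_, h2⟩ := hx
      exact h2
  have hμ1 : μ = 1 := by
    by_contra h0
    have h1 : μ = 0 := by
      have key : ∀ m : ZMod 2, ¬ m = 1 → m = 0 := by decide
      exact key _ h0
    obtain ⟨u, hu⟩ := hne
    apply hu
    have := htop u
    rw [h1] at this
    simpa using this
  have := htop v
  rw [hμ1, one_mul] at this
  have key : ∀ a b : ZMod 2, a + b = 0 → a = b := by decide
  exact key _ _ this

end Cfsg.Agent.Lib.LeechX
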